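import Mathlib
import Cfsg.Prelude.Def_GeometricClasses
import Cfsg.Prelude.Def_LieClassical

/-! SPP piece TS4 (helper93, for helper71's project SPP, S5805 / S5844): transport of the tensor
clause along `e : κ ≃ Fin n`. -/

set_option autoImplicit false
set_option linter.unusedSectionVars false
set_option linter.unusedVariables false

namespace Cfsg.Agent.Lib.Helper93.SPPTS4

open Matrix Cfsg.Geo
open scoped Kronecker

variable {n : ℕ} {F : Type*} [Field F] [Fintype F]
variable {κ : Type} [Fintype κ] [DecidableEq κ]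

/-- the transported two-argument form on `Fin n → F` -/
def tf (e : κ ≃ Fin n) (f : (κ → F) → (κ → F) → F) : (Fin n → F) → (Fin n → F) → F :=
  fun u v => f (u ∘ e) (v ∘ e)

theorem ts4_symm_val (e : κ ≃ Fin n) (y : GL (Fin n) F) :
    (((glReindex e).symm y : GL κ F) : Matrix κ κ F) =
      (y : Matrix (Fin n) (Fin n) F).submatrix e e := by
  rfl

theorem ts4_mulVec (e : κ ≃ Fin n) (P' : GL (Fin n) F) (z : Fin n → F) :
    ((P' : Matrix (Fin n) (Fin n) F) *ᵥ z) ∘ e =
      (((glReindex e).symm P' : GL κ F) : Matrix κ κ F) *ᵥ (z ∘ e) := by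
  rw [ts4_symm_val, Matrix.submatrix_mulVec_equiv]
  have h : (z ∘ e) ∘ e.symm = z := by
    funext i
    simp
  rw [h]

theorem ts4_reindex {n₁ n₂ : ℕ} (e : κ ≃ Fin n) (e' : Fin n ≃ Fin n₁ × Fin n₂)
    (k : GL (Fin n₁ × Fin n₂) F) :
    (glReindex e).symm (glReindex e'.symm k) = glReindex (e.trans e').symm k := by
  apply Units.ext
  ext i j
  rfl

/-- TS4 -/
theorem TS4 (e : κ ≃ Fin n) (f : (κ → F) → (κ → F) → F) (H : Subgroup (GL κ F)) {n₁ n₂ : ℕ}
    (e' : Fin n ≃ Fin n₁ × Fin n₂) (P' : GL (Fin n) F)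
    (f₁ : (Fin n₁ → F) → (Fin n₁ → F) → F) (f₂ : (Fin n₂ → F) → (Fin n₂ → F) → F) :
    (H.map (glReindex e).toMonoidHom ≤ tensorProductSubgroup n₁ n₂ e' P' →
      H ≤ tensorProductSubgroup n₁ n₂ (e.trans e') ((glReindex e).symm P')) ∧
    (IsTensorFormStructure id (tf e f) f₁ f₂ e' P' →
      IsTensorFormStructure id f f₁ f₂ (e.trans e') ((glReindex e).symm P')) := by
  refine ⟨?_, ?_⟩
  · intro h g hg
    have h1 : (glReindex e) g ∈ tensorProductSubgroup n₁ n₂ e' P' := h ⟨g, hg, rfl⟩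
    obtain ⟨y, ⟨k, hk, rfl⟩, hyg⟩ := h1
    refine ⟨glReindex (e.trans e').symm k, ⟨k, hk, rfl⟩, ?_⟩
    have h2 : g = (glReindex e).symm ((glReindex e) g) := by simp
    rw [h2, ← hyg, ← ts4_reindex]
    simp [MulAut.conj_apply]
  · rintro ⟨c, hc, h⟩
    refine ⟨c, hc, fun x y => ?_⟩
    have h1 := h x y
    unfold tf at h1
    rw [ts4_mulVec, ts4_mulVec] at h1
    exact h1

end Cfsg.Agent.Lib.Helper93.SPPTS4
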