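import Mathlib
import Cfsg.Prelude.Def_GeometricClasses
import Cfsg.Prelude.Def_LieClassical

/-! SPP piece TS3 (helper93, for helper71's project SPP, S5805 / S5844): transport of the
field-subalgebra clauses along `e : κ ≃ Fin n`. -/

set_option autoImplicit false
set_option linter.unusedSectionVars false
set_option linter.unusedVariables false

namespace Cfsg.Agent.Lib.Helper93.SPPTS3

open Matrix Cfsg.Geo
open scoped Kronecker

variable {n : ℕ} {F : Type*} [Field F] [Fintype F]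
variable {κ : Type} [Fintype κ] [DecidableEq κ]

/-- the transported two-argument form on `Fin n → F` -/
def tf (e : κ ≃ Fin n) (f : (κ → F) → (κ → F) → F) : (Fin n → F) → (Fin n → F) → F :=
  fun u v => f (u ∘ e) (v ∘ e)

/-- the transported subalgebra -/
def tK (e : κ ≃ Fin n) (K' : Subalgebra F (Matrix (Fin n) (Fin n) F)) :
    Subalgebra F (Matrix κ κ F) :=
  K'.comap (Matrix.reindexAlgEquiv F F e).toAlgHom

theorem ts3_mem (e : κ ≃ Fin n) (K' : Subalgebra F (Matrix (Fin n) (Fin n) F))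
    (k : Matrix κ κ F) : k ∈ tK e K' ↔ Matrix.reindexAlgEquiv F F e k ∈ K' := Iff.rfl

theorem ts3_symm_mem (e : κ ≃ Fin n) (K' : Subalgebra F (Matrix (Fin n) (Fin n) F))
    (k' : Matrix (Fin n) (Fin n) F) (hk' : k' ∈ K') :
    (Matrix.reindexAlgEquiv F F e).symm k' ∈ tK e K' := by
  rw [ts3_mem, AlgEquiv.apply_symm_apply]
  exact hk'

theorem ts3_comp (e : κ ≃ Fin n) (w : κ → F) : (w ∘ e.symm) ∘ e = w := by
  funext i
  simp

theorem ts3_key (e : κ ≃ Fin n) (k : Matrix κ κ F) (z : Fin n → F) :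
    ((Matrix.reindexAlgEquiv F F e k) *ᵥ z) ∘ e = k *ᵥ (z ∘ e) := by
  have h : Matrix.reindexAlgEquiv F F e k = k.submatrix e.symm e.symm := rfl
  rw [h, Matrix.submatrix_mulVec_equiv]
  funext i
  simp

theorem ts3_key' (e : κ ≃ Fin n) (k : Matrix κ κ F) (u : κ → F) :
    ((Matrix.reindexAlgEquiv F F e k) *ᵥ (u ∘ e.symm)) ∘ e = k *ᵥ u := by
  rw [ts3_key, ts3_comp]

/-- the restriction of the reindexing to the transported subalgebra -/
noncomputable def ts3Equiv (e : κ ≃ Fin n) (K' : Subalgebra F (Matrix (Fin n) (Fin n) F)) :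
    ↥(tK e K') ≃ₗ[F] ↥K' where
  toFun x := ⟨Matrix.reindexAlgEquiv F F e x.1, x.2⟩
  map_add' x y := Subtype.ext (map_add _ _ _)
  map_smul' c x := Subtype.ext (map_smul _ _ _)
  invFun y := ⟨(Matrix.reindexAlgEquiv F F e).symm y.1, ts3_symm_mem e K' y.1 y.2⟩
  left_inv x := Subtype.ext (AlgEquiv.symm_apply_apply _ _)
  right_inv y := Subtype.ext (AlgEquiv.apply_symm_apply _ _)

/-- TS3 -/
theorem TS3 (e : κ ≃ Fin n) (f : (κ → F) → (κ → F) → F) (H : Subgroup (GL κ F)) (r : ℕ)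
    (K' : Subalgebra F (Matrix (Fin n) (Fin n) F)) :
    (H.map (glReindex e).toMonoidHom ≤ subalgebraNormalizer K' →
      H ≤ subalgebraNormalizer (tK e K')) ∧
    (IsFieldSubalgebra r K' → IsFieldSubalgebra r (tK e K')) ∧
    (IsSelfAdjointFor (tf e f) K' ↔ IsSelfAdjointFor f (tK e K')) ∧
    (IsAdjointClosedFor (tf e f) K' → IsAdjointClosedFor f (tK e K')) ∧
    ((∀ k ∈ K', ∀ v : Fin n → F, tf e f (k *ᵥ v) v = 0) →
      ∀ k ∈ tK e K', ∀ v : κ → F, f (k *ᵥ v) v = 0) := by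
  refine ⟨?_, ?_, ⟨?_, ?_⟩, ?_, ?_⟩
  · intro h g hg k
    have h1 : (glReindex e) g ∈ subalgebraNormalizer K' := h ⟨g, hg, rfl⟩
    have h2 := h1 (Matrix.reindexAlgEquiv F F e k)
    have h3 : Matrix.reindexAlgEquiv F F e
        ((g : Matrix κ κ F) * k * ((g⁻¹ : GL κ F) : Matrix κ κ F)) =
        ((glReindex e g : GL (Fin n) F) : Matrix (Fin n) (Fin n) F) *
          Matrix.reindexAlgEquiv F F e k *
          (((glReindex e g)⁻¹ : GL (Fin n) F) : Matrix (Fin n) (Fin n) F) := by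
      rw [map_mul, map_mul, ← map_inv]
      rfl
    rw [ts3_mem, ts3_mem, h3]
    exact h2
  · intro hK
    refine ⟨?_, ?_, ?_⟩
    · intro x hx y hy
      have h1 := hK.comm _ ((ts3_mem e K' x).mp hx) _ ((ts3_mem e K' y).mp hy)
      rw [← map_mul, ← map_mul] at h1
      exact (Matrix.reindexAlgEquiv F F e).injective h1
    · intro x hx hx0
      have hx0' : Matrix.reindexAlgEquiv F F e x ≠ 0 := by
        intro h0
        apply hx0
        apply (Matrix.reindexAlgEquiv F F e).injective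
        rw [h0, map_zero]
      obtain ⟨y', hy', hxy⟩ := hK.inv _ ((ts3_mem e K' x).mp hx) hx0'
      refine ⟨(Matrix.reindexAlgEquiv F F e).symm y', ts3_symm_mem e K' y' hy', ?_⟩
      apply (Matrix.reindexAlgEquiv F F e).injective
      rw [map_mul, AlgEquiv.apply_symm_apply, hxy, map_one]
    · rw [(ts3Equiv e K').finrank_eq]
      exact hK.finrank_eq
  · intro h k hk u v
    have h1 := h _ ((ts3_mem e K' k).mp hk) (u ∘ e.symm) (v ∘ e.symm)
    unfold tf at h1
    rw [ts3_key', ts3_key', ts3_comp, ts3_comp] at h1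
    exact h1
  · intro h k' hk' u v
    have h1 := h _ (ts3_symm_mem e K' k' hk') (u ∘ e) (v ∘ e)
    rw [← ts3_key, ← ts3_key, AlgEquiv.apply_symm_apply] at h1
    exact h1
  · intro h k hk
    obtain ⟨k'', hk'', hadj⟩ := h _ ((ts3_mem e K' k).mp hk)
    refine ⟨(Matrix.reindexAlgEquiv F F e).symm k'', ts3_symm_mem e K' k'' hk'', ?_⟩
    intro u v
    have h1 := hadj (u ∘ e.symm) (v ∘ e.symm)
    unfold tf at h1
    rw [ts3_key', ts3_comp, ts3_comp] at h1
    rw [h1, ← ts3_key' e ((Matrix.reindexAlgEquiv F F e).symm k'') v, AlgEquiv.apply_symm_apply]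
  · intro h k hk v
    have h1 := h _ ((ts3_mem e K' k).mp hk) (v ∘ e.symm)
    unfold tf at h1
    rw [ts3_key', ts3_comp] at h1
    exact h1

end Cfsg.Agent.Lib.Helper93.SPPTS3
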