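import Mathlib
import Cfsg.Prelude.Def_GeometricClasses
import Cfsg.Prelude.Def_LieClassical
import Cfsg.Agent.Lib.Helper7.GUOrder
import Cfsg.Agent.Lib.Helper21.SUPU1
import Cfsg.Agent.Lib.Helper71.SUP0
import Cfsg.Agent.Lib.Helper76.SPPPAIRa

/-! Project SUQ (helper50, S5841), piece PAIRa (helper93; hermitian twin of helper76's SPP
PAIRa): the isotypic blocks of a group of isometries of the hermitian form are paired by the
form. -/

set_option autoImplicit false

namespace Cfsg.Agent.Lib.Helper93.SUQPAIRa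

open Matrix Cfsg.Geo
open Cfsg.Agent.Lib.Helper7

set_option linter.unusedSectionVars false

variable {n : ℕ} {F : Type*} [Field F] [Fintype F] {q : ℕ}

/-- the orthogonal complement of a subspace for the hermitian form -/
def perp (hF : Fintype.card F = q ^ 2) (W : Submodule F (Fin n → F)) :
    Submodule F (Fin n → F) where
  carrier := {v | ∀ u ∈ W, Cfsg.hermForm n F q u v = 0}
  add_mem' := by
    intro a b ha hb u hu
    rw [hf_add_right hF, ha u hu, hb u hu, add_zero]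
  zero_mem' := fun u _ => hf_zero_right hF n u
  smul_mem' := by
    intro c v hv u hu
    rw [hf_smul_right, hv u hu, mul_zero]

/-- PAIRa: the isotypic blocks of a group of isometries are paired by the hermitian form. -/
theorem PAIRa (hF : Fintype.card F = q ^ 2) (L : Subgroup (GL (Fin n) F))
    (hL : L ≤ Cfsg.GU n F q) {t m : ℕ}
    (D : Fin t → Submodule F (Fin n → F)) (hD : IsMDecomposition m D)
    (hiso : ∀ i, ∀ X : Matrix (Fin n) (Fin n) F, (∀ x ∈ L, X * x.1 = x.1 * X) →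
      (D i).map (Matrix.toLin' X) ≤ D i)
    (hinv : ∀ i, ∀ x ∈ L, (D i).map (Matrix.toLin' x.1) ≤ D i)
    (hfull : ∀ i, ∀ W : Submodule F (Fin n → F), W ≤ D i →
      (∀ x ∈ L, W.map (Matrix.toLin' x.1) ≤ W) →
      (∀ X : Matrix (Fin n) (Fin n) F, (∀ x ∈ L, X * x.1 = x.1 * X) →
        W.map (Matrix.toLin' X) ≤ W) →
      W = ⊥ ∨ W = D i) :
    ∃ τ : Fin t → Fin t, (∀ i, τ (τ i) = i) ∧
      (∀ i j, j ≠ τ i → AreOrthogonalFor (Cfsg.hermForm n F q) (D i) (D j)) ∧
      (∀ i, ¬ AreOrthogonalFor (Cfsg.hermForm n F q) (D i) (D (τ i))) := by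
  classical
  have hfx : ∀ x ∈ L, ∀ u v, Cfsg.hermForm n F q (x.1 *ᵥ u) (x.1 *ᵥ v) =
      Cfsg.hermForm n F q u v :=
    fun x hx u v => hL hx u v
  have hinv' : ∀ i, ∀ x ∈ L, ∀ v ∈ D i, x.1 *ᵥ v ∈ D i := by
    intro i x hx v hv
    have h2 := hinv i x hx ⟨v, hv, rfl⟩
    rwa [Matrix.toLin'_apply] at h2
  have hiso' : ∀ i, ∀ X : Matrix (Fin n) (Fin n) F, (∀ x ∈ L, X * x.1 = x.1 * X) →
      ∀ v ∈ D i, X *ᵥ v ∈ D i := by
    intro i X hX v hv
    have h2 := hiso i X hX ⟨v, hv, rfl⟩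
    rwa [Matrix.toLin'_apply] at h2
  -- the orthogonal complement of a block is invariant
  have hDpL : ∀ i, ∀ x ∈ L, ∀ v ∈ perp hF (D i),
      x.1 *ᵥ v ∈ perp hF (D i) := by
    intro i x hx v hv u hu
    show Cfsg.hermForm n F q u (x.1 *ᵥ v) = 0
    have h1 := hfx x hx ((x⁻¹).1 *ᵥ u) v
    rw [Matrix.mulVec_mulVec, ← Units.val_mul, mul_inv_cancel, Units.val_one,
      Matrix.one_mulVec] at h1
    rw [h1]
    exact hv _ (hinv' i x⁻¹ (inv_mem hx) u hu)
  have hDpC : ∀ i, ∀ X : Matrix (Fin n) (Fin n) F, (∀ x ∈ L, X * x.1 = x.1 * X) →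
      ∀ v ∈ perp hF (D i),
        X *ᵥ v ∈ perp hF (D i) := by
    intro i X hX v hv u hu
    show Cfsg.hermForm n F q u (X *ᵥ v) = 0
    have hYC : ∀ x ∈ L, Cfsg.Agent.Lib.Helper71.SUP.adj q X * x.1 =
        x.1 * Cfsg.Agent.Lib.Helper71.SUP.adj q X :=
      fun x hx => Cfsg.Agent.Lib.Helper71.SUP.adj_comm hF (hL hx) (hX x hx)
    have hYa : Cfsg.hermForm n F q (Cfsg.Agent.Lib.Helper71.SUP.adj q X *ᵥ u) v =
        Cfsg.hermForm n F q u (X *ᵥ v) := by
      rw [Cfsg.Agent.Lib.Helper71.SUP.hf_adj hF, Cfsg.Agent.Lib.Helper71.SUP.adj_adj hF]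
    rw [← hYa]
    exact hv _ (hiso' i _ hYC u hu)
  -- dichotomy
  have hdich : ∀ i j, AreOrthogonalFor (Cfsg.hermForm n F q) (D i) (D j) ∨
      D j ⊓ perp hF (D i) = ⊥ := by
    intro i j
    rcases hfull j (D j ⊓ perp hF (D i)) inf_le_left
      (by
        rintro x hx _ ⟨v, ⟨hv1, hv2⟩, rfl⟩
        rw [Matrix.toLin'_apply]
        exact ⟨hinv' j x hx v hv1, hDpL i x hx v hv2⟩)
      (by
        rintro X hX _ ⟨v, ⟨hv1, hv2⟩, rfl⟩
        rw [Matrix.toLin'_apply]
        exact ⟨hiso' j X hX v hv1, hDpC i X hX v hv2⟩) with h | h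
    · exact Or.inr h
    · left
      intro u hu v hv
      have hv' : v ∈ D j ⊓ perp hF (D i) := by rw [h]; exact hv
      exact hv'.2 u hu
  -- existence
  have hex : ∀ i, ∃ j, ¬ AreOrthogonalFor (Cfsg.hermForm n F q) (D i) (D j) := by
    intro i
    by_contra hcon
    push Not at hcon
    have hne : D i ≠ ⊥ := by
      intro h0
      have h1 := hD.finrank_eq i
      rw [h0, finrank_bot] at h1
      exact absurd h1.symm (Nat.pos_iff_ne_zero.mp hD.pos)
    obtain ⟨u, hu, hu0⟩ := Submodule.exists_mem_ne_zero_of_ne_bot hne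
    have hle : iSup D ≤ perp hF (D i) :=
      iSup_le (fun j v hv u' hu' => hcon j u' hu' v hv)
    apply hu0
    apply Cfsg.Agent.Lib.Helper21.SUPU1.U1_nondeg (q := q) u
    intro y
    apply hf_eq_zero_symm hF
    have hy' : y ∈ perp hF (D i) :=
      hle (by rw [hD.iSup_eq_top]; exact Submodule.mem_top)
    exact hy' u hu
  -- uniqueness
  have huniq : ∀ i j k, ¬ AreOrthogonalFor (Cfsg.hermForm n F q) (D i) (D j) → ¬ AreOrthogonalFor (Cfsg.hermForm n F q) (D i) (D k) →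
      j = k := by
    intro i j k hj hk
    by_contra hjk
    have hTj := (hdich i j).resolve_left hj
    have hTk := (hdich i k).resolve_left hk
    obtain ⟨Pj, hPjC, hPj1, hPj0⟩ := Cfsg.Agent.Lib.Helper76.SPPPAIRa.exists_proj L D hD hinv j
    obtain ⟨Pk, hPkC, hPk1, hPk0⟩ := Cfsg.Agent.Lib.Helper76.SPPPAIRa.exists_proj L D hD hinv k
    have hW : (D j ⊔ D k) ⊓ perp hF (D i) = ⊥ := by
      rw [eq_bot_iff]
      rintro w ⟨hw1, hw2⟩
      obtain ⟨a, ha, b, hb, rfl⟩ := Submodule.mem_sup.mp hw1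
      have h1 := hDpC i Pj hPjC _ hw2
      rw [Matrix.mulVec_add, hPj1 a ha, hPj0 k (Ne.symm hjk) b hb, add_zero] at h1
      have h2 := hDpC i Pk hPkC _ hw2
      rw [Matrix.mulVec_add, hPk1 b hb, hPk0 j hjk a ha, zero_add] at h2
      have ha0 : a ∈ D j ⊓ perp hF (D i) := ⟨ha, h1⟩
      have hb0 : b ∈ D k ⊓ perp hF (D i) := ⟨hb, h2⟩
      rw [hTj] at ha0
      rw [hTk] at hb0
      rw [(Submodule.mem_bot F).mp ha0, (Submodule.mem_bot F).mp hb0, add_zero]
      exact Submodule.zero_mem _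
    have hdisj : D j ⊓ D k = ⊥ := (hD.indep.pairwiseDisjoint hjk).eq_bot
    have h1 := Submodule.finrank_sup_add_finrank_inf_eq (D j) (D k)
    rw [hdisj, finrank_bot, add_zero, hD.finrank_eq, hD.finrank_eq] at h1
    have h2 := Submodule.finrank_sup_add_finrank_inf_eq (D j ⊔ D k)
      (perp hF (D i))
    rw [hW, finrank_bot, add_zero, h1] at h2
    have h3 : Module.finrank F
        ((D j ⊔ D k ⊔ perp hF (D i) : Submodule F (Fin n → F))) ≤
        Module.finrank F (Fin n → F) := Submodule.finrank_le _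
    have h4 : n ≤ Module.finrank F (D i) + Module.finrank F (perp hF (D i)) :=
      Cfsg.Agent.Lib.Helper21.SUPU1.U1_finrank_perp hF (D i) (perp hF (D i)) (fun v => Iff.rfl)
    rw [Module.finrank_fin_fun] at h3
    rw [hD.finrank_eq] at h4
    have h5 := hD.pos
    omega
  -- the pairing
  choose τ hτ using hex
  refine ⟨τ, fun i => ?_, fun i j hj => ?_, hτ⟩
  · have h1 : ¬ AreOrthogonalFor (Cfsg.hermForm n F q) (D (τ i)) (D i) := by
      intro h
      apply hτ i
      intro u hu v hv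
      exact hf_eq_zero_symm hF n _ _ (h v hv u hu)
    exact huniq (τ i) _ _ (hτ (τ i)) h1
  · by_contra h
    exact hj (huniq i _ _ h (hτ i))


end Cfsg.Agent.Lib.Helper93.SUQPAIRa
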