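import Cfsg.Agent.Lib.Helper98.H74Defs
import Cfsg.Agent.Lib.Helper96.SpFix
import Cfsg.Agent.Lib.Helper79.T73NOISO

/-!
# Project H74 (S5974), piece FIXC (helper93)

The fixed-point congruence for the action of an isometry of odd prime order `r ≠ p` on the
nondegenerate subspaces of dimension `2k+2 < c` and type `τ`: an invariant one lies inside
`ker (g - 1)` (by `T73.no_qi_small` applied to the restriction), so the fixed points are the
typed subspaces of the fixed space.
-/

set_option autoImplicit false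

namespace Cfsg.Agent.Lib.Helper98.H74

open Cfsg.Agent.Lib.Helper47 Cfsg.Agent.Lib.Helper98.T73 Module Polynomial

universe u

variable {F : Type u} [Field F] [Fintype F] {V : Type u} [AddCommGroup V] [Module F V]
  [FiniteDimensional F V] {Q : V → F} {B : V → V → F}

/-- Transport of `SubTyp` along a linear equivalence of subspaces respecting the forms. -/
theorem fixc_subtyp_of_equiv {V₁ V₂ : Type u} [AddCommGroup V₁] [Module F V₁]
    [AddCommGroup V₂] [Module F V₂]
    {Q₁ : V₁ → F} {B₁ : V₁ → V₁ → F} {Q₂ : V₂ → F} {B₂ : V₂ → V₂ → F}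
    (W₁ : Submodule F V₁) (W₂ : Submodule F V₂) (e : W₁ ≃ₗ[F] W₂)
    (hQe : ∀ w : W₁, Q₂ ((e w : W₂) : V₂) = Q₁ (w : V₁))
    (hBe : ∀ x y : W₁, B₂ ((e x : W₂) : V₂) ((e y : W₂) : V₂) = B₁ (x : V₁) (y : V₁))
    (k : ℕ) (τ : ℤ) (h : SubTyp Q₁ B₁ W₁ k τ) : SubTyp Q₂ B₂ W₂ k τ := by
  obtain ⟨hnd, hfr, htyp⟩ := h
  refine ⟨?_, ?_, ?_⟩
  · intro x hx
    have h1 : e.symm x = 0 := by
      apply hnd
      intro y
      have h2 := hx (e y)
      rw [resForm_apply] at h2 ⊢
      rw [← hBe, LinearEquiv.apply_symm_apply]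
      exact h2
    have h3 := congrArg e h1
    rwa [LinearEquiv.apply_symm_apply, map_zero] at h3
  · rw [← hfr]
    exact e.finrank_eq.symm
  · exact IsTyp.of_equiv e.toEquiv (fun v => hQe v) htyp

/-- Transport of `SubTyp` backwards along a linear equivalence of subspaces. -/
theorem fixc_subtyp_of_equiv_symm {V₁ V₂ : Type u} [AddCommGroup V₁] [Module F V₁]
    [AddCommGroup V₂] [Module F V₂]
    {Q₁ : V₁ → F} {B₁ : V₁ → V₁ → F} {Q₂ : V₂ → F} {B₂ : V₂ → V₂ → F}
    (W₁ : Submodule F V₁) (W₂ : Submodule F V₂) (e : W₁ ≃ₗ[F] W₂)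
    (hQe : ∀ w : W₁, Q₂ ((e w : W₂) : V₂) = Q₁ (w : V₁))
    (hBe : ∀ x y : W₁, B₂ ((e x : W₂) : V₂) ((e y : W₂) : V₂) = B₁ (x : V₁) (y : V₁))
    (k : ℕ) (τ : ℤ) (h : SubTyp Q₂ B₂ W₂ k τ) : SubTyp Q₁ B₁ W₁ k τ := by
  refine fixc_subtyp_of_equiv W₂ W₁ e.symm (fun w => ?_) (fun x y => ?_) k τ h
  · rw [← hQe, LinearEquiv.apply_symm_apply]
  · rw [← hBe, LinearEquiv.apply_symm_apply, LinearEquiv.apply_symm_apply]

/-- A subspace of a subspace `K` is typed for the restricted forms iff its image in `V` is. -/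
theorem fixc_subtyp_map_subtype (K : Submodule F V) (W' : Submodule F ↥K) (k : ℕ) (τ : ℤ) :
    SubTyp (fun w : ↥K => Q (w : V)) (resForm B K) W' k τ ↔
      SubTyp Q B (W'.map K.subtype) k τ := by
  have hQe : ∀ w : ↥W', Q (((Submodule.equivMapOfInjective K.subtype
      (Submodule.injective_subtype K) W') w : ↥(W'.map K.subtype)) : V)
        = (fun w : ↥K => Q (w : V)) (w : ↥K) := by
    intro w
    rw [Submodule.coe_equivMapOfInjective_apply]
    rfl
  have hBe : ∀ x y : ↥W', B (((Submodule.equivMapOfInjective K.subtype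
      (Submodule.injective_subtype K) W') x : ↥(W'.map K.subtype)) : V)
      (((Submodule.equivMapOfInjective K.subtype
      (Submodule.injective_subtype K) W') y : ↥(W'.map K.subtype)) : V)
        = resForm B K (x : ↥K) (y : ↥K) := by
    intro x y
    rw [Submodule.coe_equivMapOfInjective_apply, Submodule.coe_equivMapOfInjective_apply]
    rfl
  exact ⟨fixc_subtyp_of_equiv W' _ _ hQe hBe k τ, fixc_subtyp_of_equiv_symm W' _ _ hQe hBe k τ⟩

/-- FIXC -/
theorem card_typ_modEq_fixed (hf : QFacts F) (hQ : IsQuad Q B) (hnd : Nondeg B) (p : ℕ)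
    [Fact p.Prime] [CharP F p] (r : ℕ) (hr : r.Prime) (hr2 : r ≠ 2) (hrp : r ≠ p)
    (g : Module.End F V) (hgQ : QI Q g) (hg : g ^ r = 1) (k : ℕ) (τ : ℤ)
    (hsmall : 2 * k + 2 < (if Even (orderOf ((Fintype.card F : ℕ) : ZMod r))
          then orderOf ((Fintype.card F : ℕ) : ZMod r)
          else 2 * orderOf ((Fintype.card F : ℕ) : ZMod r))) :
    (∀ W : Submodule F V, SubTyp Q B W k τ → W.map g ≤ W → W ≤ LinearMap.ker (g - 1)) ∧
    Nat.card {W : Submodule F V // SubTyp Q B W k τ} ≡
      Nat.card {W : Submodule F ↥(LinearMap.ker (g - 1)) //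
        SubTyp (fun w : ↥(LinearMap.ker (g - 1)) => Q (w : V))
          (resForm B (LinearMap.ker (g - 1))) W k τ} [MOD r] := by
  classical
  haveI : Fact r.Prime := ⟨hr⟩
  have hA : ∀ W : Submodule F V, SubTyp Q B W k τ → W.map g ≤ W →
      W ≤ LinearMap.ker (g - 1) := by
    intro W hW hWg
    have hWg' : ∀ x ∈ W, g x ∈ W := fun x hx => hWg ⟨x, hx, rfl⟩
    have h1 : g.restrict hWg' = 1 := by
      apply no_qi_small hf (hQ.res W) hW.1 k hW.2.1 τ hW.2.2 p r hr hr2 hrp (Or.inl hsmall)
      · intro v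
        exact hgQ v
      · rw [Module.End.pow_restrict]
        ext x
        simp [hg]
    intro x hx
    rw [LinearMap.mem_ker, LinearMap.sub_apply, sub_eq_zero]
    have h2 := congrArg (fun φ : Module.End F ↥W => ((φ ⟨x, hx⟩ : ↥W) : V)) h1
    simpa using h2
  refine ⟨hA, ?_⟩
  have hfinV : Finite V := Module.finite_of_finite F
  have hfinS : Finite (Submodule F V) :=
    Finite.of_injective (fun W : Submodule F V => (W : Set V)) SetLike.coe_injective
  have hTinj : Function.Injective g := by
    have h1 : g ^ (r - 1) * g = 1 := by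
      rw [← pow_succ, Nat.sub_add_cancel hr.one_le, hg]
    intro x y hxy
    have h2 := congrArg (g ^ (r - 1)) hxy
    rw [← Module.End.mul_apply, ← Module.End.mul_apply, h1] at h2
    simpa using h2
  have hTK : ∀ x ∈ LinearMap.ker (g - 1), g x = x := by
    intro x hx
    rw [LinearMap.mem_ker, LinearMap.sub_apply, sub_eq_zero] at hx
    exact hx
  have hBg : ∀ x y : V, B (g x) (g y) = B x y := fun x y => hQ.isometry hQ g hgQ x y
  have hfinΩ : Fintype {W : Submodule F V // SubTyp Q B W k τ} := Fintype.ofFinite _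
  let f : Function.End {W : Submodule F V // SubTyp Q B W k τ} := fun W =>
    ⟨W.1.map g, fixc_subtyp_of_equiv W.1 (W.1.map g)
      (Submodule.equivMapOfInjective g hTinj W.1)
      (fun w => by rw [Submodule.coe_equivMapOfInjective_apply]; exact hgQ w)
      (fun x y => by
        rw [Submodule.coe_equivMapOfInjective_apply, Submodule.coe_equivMapOfInjective_apply]
        exact hBg x y) k τ W.2⟩
  have hk : ∀ (n : ℕ) (W : {W : Submodule F V // SubTyp Q B W k τ}),
      ((f ^ n) W).1 = W.1.map (g ^ n) := by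
    intro n
    induction n with
    | zero =>
      intro W
      rw [pow_zero, pow_zero]
      exact (Submodule.map_id W.1).symm
    | succ n ih =>
      intro W
      rw [pow_succ', pow_succ']
      change ((f ^ n) W).1.map g = W.1.map (g * g ^ n)
      rw [ih, Module.End.mul_eq_comp, Submodule.map_comp]
  have hfr : f ^ r ^ 1 = 1 := by
    rw [pow_one]
    funext W
    apply Subtype.ext
    rw [hk, hg]
    exact Submodule.map_id W.1
  have key := Equiv.Perm.card_fixedPoints_modEq (p := r) (n := 1) hfr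
  have hfixle : ∀ W : {W : Submodule F V // SubTyp Q B W k τ},
      f W = W → W.1 ≤ LinearMap.ker (g - 1) := by
    intro W hW
    have h1 : W.1.map g = W.1 := congrArg Subtype.val hW
    exact hA W.1 W.2 (le_of_eq h1)
  have hlefix : ∀ W : {W : Submodule F V // SubTyp Q B W k τ},
      W.1 ≤ LinearMap.ker (g - 1) → f W = W := by
    intro W hW
    apply Subtype.ext
    change W.1.map g = W.1
    ext x
    constructor
    · rintro ⟨y, hy, rfl⟩
      rw [hTK y (hW hy)]
      exact hy
    · intro hx
      exact ⟨x, hx, hTK x (hW hx)⟩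
  let e : Function.fixedPoints f ≃
      {W : Submodule F ↥(LinearMap.ker (g - 1)) //
        SubTyp (fun w : ↥(LinearMap.ker (g - 1)) => Q (w : V))
          (resForm B (LinearMap.ker (g - 1))) W k τ} :=
    { toFun := fun W => ⟨W.1.1.comap (LinearMap.ker (g - 1)).subtype, by
        have hle := hfixle W.1 W.2
        have h1 : (W.1.1.comap (LinearMap.ker (g - 1)).subtype).map
            (LinearMap.ker (g - 1)).subtype = W.1.1 := by
          rw [Submodule.map_comap_subtype]
          exact inf_eq_right.mpr hle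
        apply (fixc_subtyp_map_subtype (LinearMap.ker (g - 1)) _ k τ).mpr
        rw [h1]
        exact W.1.2⟩
      invFun := fun W' => ⟨⟨W'.1.map (LinearMap.ker (g - 1)).subtype,
          (fixc_subtyp_map_subtype (LinearMap.ker (g - 1)) W'.1 k τ).mp W'.2⟩, by
        apply hlefix
        rintro _ ⟨x, _, rfl⟩
        exact x.2⟩
      left_inv := fun W => by
        apply Subtype.ext
        apply Subtype.ext
        have hle := hfixle W.1 W.2
        change (W.1.1.comap (LinearMap.ker (g - 1)).subtype).map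
            (LinearMap.ker (g - 1)).subtype = W.1.1
        rw [Submodule.map_comap_subtype]
        exact inf_eq_right.mpr hle
      right_inv := fun W' => by
        apply Subtype.ext
        change (W'.1.map (LinearMap.ker (g - 1)).subtype).comap
            (LinearMap.ker (g - 1)).subtype = W'.1
        exact Submodule.comap_map_eq_of_injective (Submodule.injective_subtype _) W'.1 }
  rw [← Nat.card_congr e, Nat.card_eq_fintype_card, Nat.card_eq_fintype_card]
  convert key

end Cfsg.Agent.Lib.Helper98.H74
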