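import Cfsg.Agent.Lib.Helper96.HyDefs

/-!
Project HE (S5993, helper96), piece INVOLG (helper93, after helper46's HY-INVOL): every
involutory isometry of an odd-dimensional nondegenerate symmetric space fixes an `m`-space with
the property `P` (assembly from the two hypotheses `hsum`, `hhp`).
-/

set_option autoImplicit false
set_option linter.unusedSectionVars false
set_option linter.unusedVariables false

namespace Cfsg.Agent.Lib.Helper93.He

open Module Polynomial Cfsg.Agent.Lib.Helper96.Sp Cfsg.Agent.Lib.Helper96.Hy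
  Cfsg.Agent.Lib.Helper47

universe u

variable {F : Type u} [Field F] [Fintype F] {V : Type u} [AddCommGroup V] [Module F V]
  [FiniteDimensional F V] {B : LinearMap.BilinForm F V}

-- PIECE INVOLG
theorem invol_fix_gen (hS : B.IsSymm) (h2 : (2 : F) ≠ 0) (hN : ND B ⊤)
    (hq2 : ¬ 2 ∣ Fintype.card F) (T : Module.End F V) (hT : Isom B T) (hT2 : T ^ 2 = 1)
    (hodd : Odd (finrank F V)) (m : ℕ) (hme : Even m) (hm2 : 2 ≤ m)
    (hmn : m + 1 ≤ finrank F V) (P : Submodule F V → Prop)
    (hsum : ∀ A E : Submodule F V, ND B A → ND B E → Orth B A E → Odd (finrank F A) →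
      finrank F A + finrank F E = finrank F V → ¬ (finrank F A = 1 ∧ m + 1 = finrank F V) →
      ∃ X Y : Submodule F V, X ≤ A ∧ Y ≤ E ∧ P (X ⊔ Y) ∧ finrank F ↥(X ⊔ Y) = m)
    (hhp : ∀ E : Submodule F V, ND B E → 2 ≤ finrank F E →
      ∃ u ∈ E, B u u ≠ 0 ∧ P (B.orthogonal (Submodule.span F {u})) ∧
        finrank F ↥(B.orthogonal (Submodule.span F {u})) + 1 = finrank F V) :
    ∃ W : Submodule F V, finrank F W = m ∧ P W ∧ W.map T ≤ W := by
  haveI : Fact (Nat.Prime 2) := ⟨Nat.prime_two⟩
  have hr0 : ((2 : ℕ) : F) ≠ 0 := by exact_mod_cast h2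
  have hKnd := Helper98.O72.nd_ker hS h2 hN T hT 2 hq2 hr0 hT2
  have hRnd := Helper98.O72.nd_range hS h2 hN T hT 2 hq2 hr0 hT2
  have hKR : Orth B (LinearMap.ker (T - 1)) (LinearMap.range (T - 1)) := orth_ker_range hT
  obtain ⟨-, -, -, -, -, -, -, -, hdim⟩ := Helper96.BG.pow_one_setup T 2 hq2 hr0 hT2
  have hTK : ∀ x ∈ LinearMap.ker (T - 1), T x = x := by
    intro x hx
    rw [LinearMap.mem_ker, LinearMap.sub_apply, sub_eq_zero] at hx
    exact hx
  have hTR : ∀ x ∈ LinearMap.range (T - 1), T x = -x := by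
    rintro _ ⟨y, rfl⟩
    have h1 : T (T y) = y := by
      have h0 := congrArg (fun S : Module.End F V => S y) hT2
      simpa [pow_two] using h0
    rw [LinearMap.sub_apply, Module.End.one_apply, map_sub, h1]
    abel
  have hinvK : ∀ X : Submodule F V, X ≤ LinearMap.ker (T - 1) → X.map T ≤ X := by
    rintro X hX _ ⟨x, hx, rfl⟩
    rw [hTK x (hX hx)]
    exact hx
  have hinvR : ∀ Y : Submodule F V, Y ≤ LinearMap.range (T - 1) → Y.map T ≤ Y := by
    rintro Y hY _ ⟨x, hx, rfl⟩
    rw [hTR x (hY hx)]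
    exact Y.neg_mem hx
  have main : ∀ A E : Submodule F V, ND B A → ND B E → Orth B A E → Odd (finrank F A) →
      finrank F A + finrank F E = finrank F V →
      (∀ X : Submodule F V, X ≤ A → X.map T ≤ X) →
      (∀ Y : Submodule F V, Y ≤ E → Y.map T ≤ Y) →
      ∃ W : Submodule F V, finrank F W = m ∧ P W ∧ W.map T ≤ W := by
    intro A E hA hE hAE hAodd hAEf hinvA hinvE
    by_cases hex : finrank F A = 1 ∧ m + 1 = finrank F V
    · obtain ⟨u, huE, huu, hHyp, hfin⟩ := hhp E hE (by omega)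
      refine ⟨B.orthogonal (Submodule.span F {u}), by omega, hHyp, ?_⟩
      apply perp_invariant hN hT
      exact hinvE _ ((Submodule.span_singleton_le_iff_mem u E).mpr huE)
    · obtain ⟨X, Y, hXA, hYE, hHyp, hfin⟩ := hsum A E hA hE hAE hAodd hAEf hex
      refine ⟨X ⊔ Y, hfin, hHyp, ?_⟩
      rw [Submodule.map_sup]
      exact sup_le_sup (hinvA X hXA) (hinvE Y hYE)
  rcases Nat.even_or_odd (finrank F (LinearMap.ker (T - 1))) with hKe | hKo
  · have hRo : Odd (finrank F (LinearMap.range (T - 1))) := by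
      rcases Nat.even_or_odd (finrank F (LinearMap.range (T - 1))) with hRe | hRo
      · exfalso
        have h3 := hKe.add hRe
        rw [hdim] at h3
        exact (Nat.not_even_iff_odd.mpr hodd) h3
      · exact hRo
    exact main _ _ hRnd hKnd (Helper98.O72.orth_symm hS h2 hKR) hRo (by omega) hinvR hinvK
  · exact main _ _ hKnd hRnd hKR hKo hdim hinvK hinvR

end Cfsg.Agent.Lib.Helper93.He
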