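import Mathlib
import Cfsg.Agent.Lib.Helper72.JLDefs

/-! JL-AL (helper93, for helper72's S2942 project): a subgroup `K = [K, J]` of a normal subgroup
`M` which is a 3-group modulo the normal subgroup `C`, where `J` centralizes `C` modulo the
normal subgroup `Q` and `Q` normalizes `K`, is subnormal. -/

set_option autoImplicit false

namespace Cfsg.Agent.Lib.Helper93.JL

open Cfsg.Agent.Lib.Helper72.JL Cfsg.Agent.Lib.Helper72.SC Cfsg.Agent.Lib.Helper78.Jc

open scoped commutatorElement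

universe u

theorem al (h1 : SubnilStmt.{u}) (h2 : KcStmt.{u}) : AlStmt.{u} := by
  intro X _ _ Q C M K J hQ hC hM hQC hCM h3 hCJ hKJ hKM hQK
  have hKC := h2 X Q C K J hQ hC hCJ hKJ
  let π : X →* X ⧸ Q := QuotientGroup.mk' Q
  have hπsurj : Function.Surjective π := QuotientGroup.mk'_surjective Q
  have hπ : ∀ a b : X, ⁅a, b⁆ ∈ Q ↔ π a * π b = π b * π a := by
    intro a b
    rw [← commutatorElement_eq_one_iff_mul_comm, ← map_commutatorElement]
    exact (QuotientGroup.eq_one_iff _).symm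
  let Y : Subgroup X :=
    M ⊓ (Subgroup.centralizer ((C.map π : Subgroup (X ⧸ Q)) : Set (X ⧸ Q))).comap π
  have hYmem : ∀ y : X, y ∈ Y ↔ y ∈ M ∧ ∀ c ∈ C, ⁅y, c⁆ ∈ Q := by
    intro y
    simp only [Y, Subgroup.mem_inf, Subgroup.mem_comap, Subgroup.mem_centralizer_iff]
    constructor
    · rintro ⟨hyM, hy⟩
      refine ⟨hyM, fun c hc => ?_⟩
      rw [hπ]
      exact (hy (π c) (Subgroup.mem_map_of_mem π hc)).symm
    · rintro ⟨hyM, hy⟩
      refine ⟨hyM, ?_⟩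
      rintro _ ⟨c, hc, rfl⟩
      exact ((hπ y c).mp (hy c hc)).symm
  have hCmapN : (C.map π).Normal := hC.map π hπsurj
  have hcentN : (Subgroup.centralizer ((C.map π : Subgroup (X ⧸ Q)) : Set (X ⧸ Q))).Normal :=
    inferInstance
  have hYn : Y.Normal := Subgroup.normal_inf_normal _ _ (hH := hM) (hK := hcentN.comap π)
  have hQY : Q ≤ Y := by
    intro q hq
    rw [hYmem]
    refine ⟨hCM (hQC hq), fun c _ => ?_⟩
    rw [hπ]
    have hq1 : π q = 1 := (QuotientGroup.eq_one_iff q).mpr hq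
    rw [hq1, one_mul, mul_one]
  have hKY : K ≤ Y := by
    intro k hk
    rw [hYmem]
    exact ⟨hKM hk, fun c hc => hKC k hk c hc⟩
  have hQYn : (Q.subgroupOf Y).Normal := hQ.subgroupOf Y
  have hCYn : (C.subgroupOf Y).Normal := hC.subgroupOf Y
  have hle : Q.subgroupOf Y ≤ (C.subgroupOf Y).comap (MonoidHom.id ↥Y) := by
    intro y hy
    rw [Subgroup.mem_comap, MonoidHom.id_apply, Subgroup.mem_subgroupOf]
    exact hQC (Subgroup.mem_subgroupOf.mp hy)
  let f : ↥Y ⧸ Q.subgroupOf Y →* ↥Y ⧸ C.subgroupOf Y :=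
    QuotientGroup.map (Q.subgroupOf Y) (C.subgroupOf Y) (MonoidHom.id ↥Y) hle
  have hker : f.ker ≤ Subgroup.center (↥Y ⧸ Q.subgroupOf Y) := by
    intro a ha
    obtain ⟨y, rfl⟩ := QuotientGroup.mk_surjective a
    rw [MonoidHom.mem_ker] at ha
    have hyC : (y : X) ∈ C := by
      have h1' : ((y : ↥Y) : ↥Y ⧸ C.subgroupOf Y) = 1 := ha
      exact Subgroup.mem_subgroupOf.mp ((QuotientGroup.eq_one_iff y).mp h1')
    rw [Subgroup.mem_center_iff]
    intro b
    obtain ⟨z, rfl⟩ := QuotientGroup.mk_surjective b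
    have hz : ⁅(z : X), (y : X)⁆ ∈ Q := ((hYmem z).mp z.2).2 (y : X) hyC
    rw [← commutatorElement_eq_one_iff_mul_comm]
    have hcomm : ⁅((z : ↥Y) : ↥Y ⧸ Q.subgroupOf Y), ((y : ↥Y) : ↥Y ⧸ Q.subgroupOf Y)⁆ =
        ((⁅z, y⁆ : ↥Y) : ↥Y ⧸ Q.subgroupOf Y) := rfl
    rw [hcomm, QuotientGroup.eq_one_iff, Subgroup.mem_subgroupOf]
    exact hz
  have hp3 : IsPGroup 3 (↥Y ⧸ C.subgroupOf Y) := by
    intro a
    obtain ⟨y, rfl⟩ := QuotientGroup.mk_surjective a
    obtain ⟨n, hn⟩ := h3 (y : X) (((hYmem y).mp y.2).1)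
    refine ⟨n, ?_⟩
    rw [← QuotientGroup.mk_pow, QuotientGroup.eq_one_iff, Subgroup.mem_subgroupOf]
    simpa using hn
  have : Fact (Nat.Prime 3) := ⟨Nat.prime_three⟩
  have hnilC : Group.IsNilpotent (↥Y ⧸ C.subgroupOf Y) := hp3.isNilpotent
  have hnil : Group.IsNilpotent (↥Y ⧸ Q.subgroupOf Y) :=
    Subgroup.isNilpotent_of_ker_le_center f hker
  have hsub1 := h1 (↥Y ⧸ Q.subgroupOf Y) hnil
    (((K ⊔ Q).subgroupOf Y).map (QuotientGroup.mk' (Q.subgroupOf Y)))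
  have hsub2 := hsub1.comap (QuotientGroup.mk' (Q.subgroupOf Y))
  have hQle : Q.subgroupOf Y ≤ (K ⊔ Q).subgroupOf Y := by
    intro y hy
    rw [Subgroup.mem_subgroupOf] at hy ⊢
    exact (le_sup_right : Q ≤ K ⊔ Q) hy
  rw [Subgroup.comap_map_eq, QuotientGroup.ker_mk', sup_eq_left.mpr hQle] at hsub2
  have hKQY : K ⊔ Q ≤ Y := sup_le hKY hQY
  have hsubKQ : (K ⊔ Q).IsSubnormal := Subgroup.IsSubnormal.trans hKQY hsub2 hYn.isSubnormal
  exact Subgroup.IsSubnormal.step K (K ⊔ Q) le_sup_left hsubKQ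
    ((Subgroup.normal_subgroupOf_iff_le_normalizer le_sup_left).mpr
      (sup_le Subgroup.le_normalizer hQK))

end Cfsg.Agent.Lib.Helper93.JL
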