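import Cfsg.Agent.S1600
import Cfsg.Agent.S1601
import Cfsg.Agent.S1602
import Cfsg.Agent.S0498
import Cfsg.Agent.Lib.Helper10.M12
import Cfsg.Agent.Lib.Helper10.HexadCount
import Cfsg.Agent.Lib.Helper95.M12Gen
import Cfsg.Agent.Lib.Helper23.PrimeDeg

/-!
# The point stabiliser `L` of `M11` in its 12-point action

`L = Stab(d) ⊓ Stab(p) ⊓ Stab(q)` for a dodecad `d`, `p ∈ d`, `q ∉ d`: it is simple of order 660,
2-transitive on the eleven points of `d` other than `p`, with point stabiliser `A5`.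
-/

set_option autoImplicit false
open scoped Pointwise
open Cfsg

namespace Cfsg.Agent.Lib.Helper93.M11L

open Cfsg.Agent.Lib.Helper9 Cfsg.Agent.Lib.Helper10 Cfsg.Agent.Lib.Helper95
  Cfsg.Agent.Lib.Helper23

/-- the point stabiliser of `M11` on the complementary dodecad -/
abbrev LL (d : Finset GolayPt) (p q : GolayPt) : Subgroup ↥M24 :=
  MulAction.stabilizer M24 d ⊓ MulAction.stabilizer M24 p ⊓ MulAction.stabilizer M24 q

theorem mem_LL {d : Finset GolayPt} {p q : GolayPt} (g : ↥M24) :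
    g ∈ LL d p q ↔ (g : Equiv.Perm GolayPt) • d = d ∧ (g : Equiv.Perm GolayPt) p = p ∧
      (g : Equiv.Perm GolayPt) q = q := by
  simp only [Subgroup.mem_inf, MulAction.mem_stabilizer_iff, and_assoc]
  rfl

theorem third {d : Finset GolayPt} (hd : d ∈ dodecads) (x y : GolayPt) :
    ∃ r ∈ d, r ≠ x ∧ r ≠ y := by
  have hdc : d.card = 12 := hd.2
  have h1 : 0 < ((d.erase x).erase y).card := by
    have e1 := Finset.pred_card_le_card_erase (s := d.erase x) (a := y)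
    have e2 := Finset.pred_card_le_card_erase (s := d) (a := x)
    omega
  obtain ⟨r, hr⟩ := Finset.card_pos.mp h1
  rw [Finset.mem_erase, Finset.mem_erase] at hr
  exact ⟨r, hr.2.2, hr.2.1, hr.1⟩

theorem notmem {d : Finset GolayPt} (g : Equiv.Perm GolayPt) (hg : g • d = d) (x : GolayPt)
    (hx : x ∉ d) : g x ∉ d := by
  intro hgx
  apply hx
  rw [← hg] at hgx
  exact (Finset.smul_mem_smul_finset_iff g).mp hgx

theorem mem' {d : Finset GolayPt} (g : Equiv.Perm GolayPt) (hg : g • d = d) (x : GolayPt)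
    (hx : x ∈ d) : g x ∈ d := by
  rw [← hg]
  exact Finset.smul_mem_smul_finset hx

/-- `L` is transitive on the points of `d` other than `p`. -/
theorem exists_move {d : Finset GolayPt} (hd : d ∈ dodecads) {p q : GolayPt} (hp : p ∈ d)
    (hq : q ∉ d) {x y : GolayPt} (hxd : x ∈ d) (hxp : x ≠ p) (hyd : y ∈ d) (hyp : y ≠ p) :
    ∃ g : ↥M24, g ∈ LL d p q ∧ (g : Equiv.Perm GolayPt) x = y := by
  obtain ⟨r₁, hr₁, hr₁p, hr₁x⟩ := third hd p x
  obtain ⟨r₂, hr₂, hr₂p, hr₂y⟩ := third hd p y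
  obtain ⟨x₁, hx₁, hx₁d, hx₁p, hx₁x, -⟩ := exists_dodecad_three hd hp hxd hr₁ (Ne.symm hxp)
    (Ne.symm hr₁p) (Ne.symm hr₁x)
  obtain ⟨x₂, hx₂, hx₂d, hx₂p, hx₂y, -⟩ := exists_dodecad_three hd hp hyd hr₂ (Ne.symm hyp)
    (Ne.symm hr₂p) (Ne.symm hr₂y)
  have hg1 : x₂ * x₁⁻¹ ∈ M24 := M24.mul_mem hx₂ (M24.inv_mem hx₁)
  have hg1d : (x₂ * x₁⁻¹) • d = d := by
    rw [mul_smul, inv_smul_eq_iff.mpr hx₁d.symm, hx₂d]
  have hg1p : (x₂ * x₁⁻¹) p = p := by
    rw [Equiv.Perm.mul_apply, Equiv.Perm.inv_eq_iff_eq.mpr hx₁p.symm, hx₂p]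
  have hg1x : (x₂ * x₁⁻¹) x = y := by
    rw [Equiv.Perm.mul_apply, Equiv.Perm.inv_eq_iff_eq.mpr hx₁x.symm, hx₂y]
  have hg1q : (x₂ * x₁⁻¹) q ∉ d := notmem _ hg1d q hq
  obtain ⟨h, hh, hhq⟩ := (Cfsg.Agent.S1600.result d hd p y r₂ hp hyd hr₂ (Ne.symm hyp)
    (Ne.symm hr₂p) (Ne.symm hr₂y)).2 _ hg1q q hq
  have hhd : ((h : ↥M24) : Equiv.Perm GolayPt) • d = d := hh.1.1.1
  have hhp : ((h : ↥M24) : Equiv.Perm GolayPt) p = p := hh.1.1.2
  have hhy : ((h : ↥M24) : Equiv.Perm GolayPt) y = y := hh.1.2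
  refine ⟨h * ⟨x₂ * x₁⁻¹, hg1⟩, ?_, ?_⟩
  · rw [mem_LL]
    refine ⟨?_, ?_, ?_⟩
    · show (((h : ↥M24) : Equiv.Perm GolayPt) * (x₂ * x₁⁻¹)) • d = d
      rw [mul_smul, hg1d, hhd]
    · show (((h : ↥M24) : Equiv.Perm GolayPt) * (x₂ * x₁⁻¹)) p = p
      rw [Equiv.Perm.mul_apply, hg1p, hhp]
    · show (((h : ↥M24) : Equiv.Perm GolayPt) * (x₂ * x₁⁻¹)) q = q
      rw [Equiv.Perm.mul_apply, hhq]
  · show (((h : ↥M24) : Equiv.Perm GolayPt) * (x₂ * x₁⁻¹)) x = y
    rw [Equiv.Perm.mul_apply, hg1x, hhy]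

/-- The stabiliser of `x` in `L` is transitive on the remaining ten points of `d`. -/
theorem exists_move2 {d : Finset GolayPt} (hd : d ∈ dodecads) {p q : GolayPt} (hp : p ∈ d)
    (hq : q ∉ d) {x y y' : GolayPt} (hxd : x ∈ d) (hxp : x ≠ p) (hyd : y ∈ d) (hyp : y ≠ p)
    (hyx : y ≠ x) (hyd' : y' ∈ d) (hyp' : y' ≠ p) (hyx' : y' ≠ x) :
    ∃ g : ↥M24, g ∈ LL d p q ∧ (g : Equiv.Perm GolayPt) x = x ∧
      (g : Equiv.Perm GolayPt) y = y' := by
  obtain ⟨x₁, hx₁, hx₁d, hx₁p, hx₁x, hx₁y⟩ := exists_dodecad_three hd hp hxd hyd (Ne.symm hxp)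
    (Ne.symm hyp) (Ne.symm hyx)
  obtain ⟨x₂, hx₂, hx₂d, hx₂p, hx₂x, hx₂y⟩ := exists_dodecad_three hd hp hxd hyd' (Ne.symm hxp)
    (Ne.symm hyp') (Ne.symm hyx')
  have hg1 : x₂ * x₁⁻¹ ∈ M24 := M24.mul_mem hx₂ (M24.inv_mem hx₁)
  have hg1d : (x₂ * x₁⁻¹) • d = d := by
    rw [mul_smul, inv_smul_eq_iff.mpr hx₁d.symm, hx₂d]
  have hg1p : (x₂ * x₁⁻¹) p = p := by
    rw [Equiv.Perm.mul_apply, Equiv.Perm.inv_eq_iff_eq.mpr hx₁p.symm, hx₂p]
  have hg1x : (x₂ * x₁⁻¹) x = x := by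
    rw [Equiv.Perm.mul_apply, Equiv.Perm.inv_eq_iff_eq.mpr hx₁x.symm, hx₂x]
  have hg1y : (x₂ * x₁⁻¹) y = y' := by
    rw [Equiv.Perm.mul_apply, Equiv.Perm.inv_eq_iff_eq.mpr hx₁y.symm, hx₂y]
  have hg1q : (x₂ * x₁⁻¹) q ∉ d := notmem _ hg1d q hq
  obtain ⟨h, hh, hhq⟩ := (Cfsg.Agent.S1600.result d hd p x y' hp hxd hyd' (Ne.symm hxp)
    (Ne.symm hyp') (Ne.symm hyx')).2 _ hg1q q hq
  have hhd : ((h : ↥M24) : Equiv.Perm GolayPt) • d = d := hh.1.1.1
  have hhp : ((h : ↥M24) : Equiv.Perm GolayPt) p = p := hh.1.1.2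
  have hhx : ((h : ↥M24) : Equiv.Perm GolayPt) x = x := hh.1.2
  have hhy : ((h : ↥M24) : Equiv.Perm GolayPt) y' = y' := hh.2
  refine ⟨h * ⟨x₂ * x₁⁻¹, hg1⟩, ?_, ?_, ?_⟩
  · rw [mem_LL]
    refine ⟨?_, ?_, ?_⟩
    · show (((h : ↥M24) : Equiv.Perm GolayPt) * (x₂ * x₁⁻¹)) • d = d
      rw [mul_smul, hg1d, hhd]
    · show (((h : ↥M24) : Equiv.Perm GolayPt) * (x₂ * x₁⁻¹)) p = p
      rw [Equiv.Perm.mul_apply, hg1p, hhp]
    · show (((h : ↥M24) : Equiv.Perm GolayPt) * (x₂ * x₁⁻¹)) q = q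
      rw [Equiv.Perm.mul_apply, hhq]
  · show (((h : ↥M24) : Equiv.Perm GolayPt) * (x₂ * x₁⁻¹)) x = x
    rw [Equiv.Perm.mul_apply, hg1x, hhx]
  · show (((h : ↥M24) : Equiv.Perm GolayPt) * (x₂ * x₁⁻¹)) y = y'
    rw [Equiv.Perm.mul_apply, hg1y, hhy]

/-- The order of `L`. -/
theorem card_LL {d : Finset GolayPt} (hd : d ∈ dodecads) {p q : GolayPt} (hp : p ∈ d)
    (hq : q ∉ d) : Nat.card ↥(LL d p q) = 660 := by
  classical
  have hdc : d.card = 12 := hd.2
  have hA := card_stabilizer_dodecad_point hd hp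
  have h1 := card_eq_orbit_mul_stab' (G := M24)
    (MulAction.stabilizer M24 d ⊓ MulAction.stabilizer M24 p) q
  have horb : MulAction.orbit ↥(MulAction.stabilizer M24 d ⊓
      MulAction.stabilizer M24 p) q = ((dᶜ : Finset GolayPt) : Set GolayPt) := by
    ext x
    rw [Finset.mem_coe, Finset.mem_compl]
    constructor
    · rintro ⟨g, rfl⟩
      have hg : ((g : ↥M24) : Equiv.Perm GolayPt) • d = d := g.2.1
      exact notmem _ hg q hq
    · intro hx
      obtain ⟨q', hq', hq'p, -⟩ := third hd p p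
      obtain ⟨r', hr', hr'p, hr'q⟩ := third hd p q'
      obtain ⟨g, hg, hgx⟩ := (Cfsg.Agent.S1600.result d hd p q' r' hp hq' hr' hq'p.symm
        hr'p.symm hr'q.symm).2 q hq x hx
      exact ⟨⟨g, hg.1.1⟩, hgx⟩
  rw [horb, Set.ncard_coe_finset, Finset.card_compl, hdc, hA] at h1
  have h24 : Fintype.card GolayPt = 24 := by
    rw [← Nat.card_eq_fintype_card]; exact card_golayPt
  rw [h24] at h1
  have h2 : Nat.card ↥(LL d p q) = Nat.card ↥(MulAction.stabilizer M24 d ⊓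
      MulAction.stabilizer M24 p ⊓ MulAction.stabilizer M24 q) := rfl
  omega

/-- The order of a point stabiliser in `L`. -/
theorem card_LLx {d : Finset GolayPt} (hd : d ∈ dodecads) {p q x : GolayPt} (hp : p ∈ d)
    (hq : q ∉ d) (hxd : x ∈ d) (hxp : x ≠ p) :
    Nat.card ↥(LL d p q ⊓ MulAction.stabilizer M24 x) = 60 := by
  classical
  have hdc : d.card = 12 := hd.2
  have h1 := card_eq_orbit_mul_stab' (G := M24) (LL d p q) x
  have horb : MulAction.orbit ↥(LL d p q) x = ((d.erase p : Finset GolayPt) : Set GolayPt) := by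
    ext y
    rw [Finset.mem_coe, Finset.mem_erase]
    constructor
    · rintro ⟨g, rfl⟩
      obtain ⟨hgd, hgp, hgq⟩ := (mem_LL g.1).mp g.2
      refine ⟨?_, mem' _ hgd x hxd⟩
      intro h
      apply hxp
      apply ((g : ↥M24) : Equiv.Perm GolayPt).injective
      rw [hgp]
      exact h
    · rintro ⟨hyp, hyd⟩
      obtain ⟨g, hg, hgx⟩ := exists_move hd hp hq hxd hxp hyd hyp
      exact ⟨⟨g, hg⟩, hgx⟩
  rw [horb, Set.ncard_coe_finset, Finset.card_erase_of_mem hp, hdc, card_LL hd hp hq] at h1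
  omega

/-- `L` is simple. -/
theorem simple_LL {d : Finset GolayPt} (hd : d ∈ dodecads) {p q : GolayPt} (hp : p ∈ d)
    (hq : q ∉ d) : IsSimpleGroup ↥(LL d p q) := by
  classical
  have hdc : d.card = 12 := hd.2
  have hcard := card_LL hd hp hq
  let T : Set GolayPt := ((d.erase p : Finset GolayPt) : Set GolayPt)
  have memT : ∀ x, x ∈ T ↔ x ≠ p ∧ x ∈ d := fun x => by
    show x ∈ ((d.erase p : Finset GolayPt) : Set GolayPt) ↔ _
    rw [Finset.mem_coe, Finset.mem_erase]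
  let φ : ↥(LL d p q) →* Equiv.Perm GolayPt := (Subgroup.subtype M24).comp (Subgroup.subtype _)
  have hφ : ∀ g : ↥(LL d p q), φ g = ((g : ↥M24) : Equiv.Perm GolayPt) := fun g => rfl
  have hT : ∀ g : ↥(LL d p q), ∀ x ∈ T, φ g x ∈ T := by
    intro g x hx
    obtain ⟨hgd, hgp, hgq⟩ := (mem_LL g.1).mp g.2
    rw [memT] at hx ⊢
    refine ⟨?_, mem' _ hgd x hx.2⟩
    intro h
    apply hx.1
    apply (φ g).injective
    rw [h, hφ, hgp]
  let act : MulAction ↥(LL d p q) T := Cfsg.Agent.S1601.restrAct φ T hT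
  have hTc : Nat.card T = 11 := by
    rw [Nat.card_coe_set_eq]
    show ((d.erase p : Finset GolayPt) : Set GolayPt).ncard = 11
    rw [Set.ncard_coe_finset, Finset.card_erase_of_mem hp, hdc]
  have hfaith : FaithfulSMul ↥(LL d p q) T := by
    refine ⟨fun {g h} hgh => ?_⟩
    obtain ⟨hgd, hgp, hgq⟩ := (mem_LL g.1).mp g.2
    obtain ⟨hhd, hhp, hhq⟩ := (mem_LL h.1).mp h.2
    have hc : Fintype.card (Fin 5) ≤ Fintype.card {z : GolayPt // z ∈ d} := by
      rw [Fintype.card_fin, Fintype.card_coe, hdc]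
      norm_num
    obtain ⟨e⟩ := Function.Embedding.nonempty_of_card_le hc
    let x : Fin 5 ↪ GolayPt := e.trans (Function.Embedding.subtype _)
    have hx : ∀ i, x i ∈ d := fun i => (e i).2
    let y : Fin 5 ↪ GolayPt :=
      x.trans (Equiv.toEmbedding ((g : ↥M24) : Equiv.Perm GolayPt))
    have hy : ∀ i, y i ∈ d := fun i => mem' _ hgd _ (hx i)
    have hu := sharp_five hd x y hx hy
    have eqd : ∀ z ∈ d, ((g : ↥M24) : Equiv.Perm GolayPt) z =
        ((h : ↥M24) : Equiv.Perm GolayPt) z := by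
      intro z hz
      by_cases hzp : z = p
      · rw [hzp, hgp, hhp]
      · have := hgh ⟨z, (memT z).mpr ⟨hzp, hz⟩⟩
        exact congrArg Subtype.val this
    have h1 := hu.unique (y₁ := ⟨g.1, hgd⟩) (y₂ := ⟨h.1, hhd⟩) (fun i => rfl)
      (fun i => (eqd _ (hx i)).symm)
    have h2 : (g : ↥M24) = h :=
      congrArg (fun k : ↥(MulAction.stabilizer M24 d) => (k : ↥M24)) h1
    exact Subtype.ext h2
  have htrans : MulAction.IsPretransitive ↥(LL d p q) T := by
    refine ⟨fun x y => ?_⟩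
    obtain ⟨hxp, hxd⟩ := (memT x.1).mp x.2
    obtain ⟨hyp, hyd⟩ := (memT y.1).mp y.2
    obtain ⟨g, hg, hgx⟩ := exists_move hd hp hq hxd hxp hyd hyp
    exact ⟨⟨g, hg⟩, Subtype.ext hgx⟩
  have : Fact (Nat.Prime 11) := ⟨by norm_num⟩
  have hcard' : Nat.card ↥(LL d p q) = 11 ^ 1 * 60 := hcard.trans (by norm_num)
  have hm : ¬ 11 ∣ 60 := by norm_num
  have hmem := card_sylow_mem_filter hcard' hm
  rw [show (Nat.divisors 60).filter (fun d => d % 11 = 1) = {1, 12} from by decide +kernel]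
    at hmem
  simp only [Finset.mem_insert, Finset.mem_singleton] at hmem
  obtain ⟨P⟩ : Nonempty (Sylow 11 ↥(LL d p q)) := inferInstance
  have hPc : Nat.card (P : Subgroup ↥(LL d p q)) = 11 := by
    have := sylow_card_of_eq hcard' hm P
    simpa using this
  have hn : Nat.card (Sylow 11 ↥(LL d p q)) = 12 := by
    rcases hmem with h1 | h1
    · exfalso
      have : Subsingleton (Sylow 11 ↥(LL d p q)) := (Nat.card_eq_one_iff_unique.mp h1).1
      have hPn : (P : Subgroup ↥(LL d p q)).Normal := Sylow.normal_of_subsingleton P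
      have hcyc : IsCyclic (P : Subgroup ↥(LL d p q)) := isCyclic_of_prime_card hPc
      have hPne : (P : Subgroup ↥(LL d p q)) ≠ ⊥ := by
        intro hb
        rw [hb, Subgroup.card_bot] at hPc
        omega
      have htr : MulAction.IsPretransitive (P : Subgroup ↥(LL d p q)) T :=
        normal_pretransitive_of_prime_card (by rw [hTc]; norm_num) (P : Subgroup ↥(LL d p q)) hPne
      obtain ⟨x0⟩ : Nonempty T := by
        have : Nat.card T ≠ 0 := by rw [hTc]; norm_num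
        exact (Nat.card_ne_zero.mp this).1
      have hle := Cfsg.Agent.S1601.card_stabilizer_le_of_normal_cyclic
        (P : Subgroup ↥(LL d p q)) x0
      have hst := Subgroup.card_mul_index (MulAction.stabilizer ↥(LL d p q) x0)
      rw [MulAction.index_stabilizer_of_transitive ↥(LL d p q) x0, hTc, hcard] at hst
      rw [hPc] at hle
      omega
    · exact h1
  have hrel := relIndex_sylow_normalizer_mul hcard' hm P
  rw [hn] at hrel
  have hrel5 : (P : Subgroup ↥(LL d p q)).relIndex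
      (Subgroup.normalizer ((P : Subgroup ↥(LL d p q)) : Set ↥(LL d p q))) = 5 := by
    omega
  exact simple_of_prime_degree (α := T) hTc P (by rw [hn]; norm_num)
    (by rw [hrel5]; exact Nat.prime_five)

/-- A point stabiliser of `L` on the eleven points is an alternating group of degree 5. -/
theorem iso_A5 {d : Finset GolayPt} (hd : d ∈ dodecads) {p q x : GolayPt} (hp : p ∈ d)
    (hq : q ∉ d) (hxd : x ∈ d) (hxp : x ≠ p) :
    Nonempty (↥(LL d p q ⊓ MulAction.stabilizer M24 x) ≃* alternatingGroup (Fin 5)) := by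
  classical
  have hdc' : dᶜ ∈ dodecads := compl_mem_dodecads hd
  obtain ⟨e⟩ := Cfsg.Agent.S1602.result dᶜ hdc' q p x (Finset.mem_compl.mpr hq)
    (by rw [Finset.mem_compl, not_not]; exact hp) (by rw [Finset.mem_compl, not_not]; exact hxd)
    (Ne.symm hxp)
  set P := MulAction.stabilizer M24 dᶜ ⊓ MulAction.stabilizer M24 q ⊓
    MulAction.stabilizer M24 ({p, x} : Finset GolayPt) with hP
  have hle : LL d p q ⊓ MulAction.stabilizer M24 x ≤ P := by
    intro g hg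
    obtain ⟨hgL, hgx⟩ := hg
    obtain ⟨hgd, hgp, hgq⟩ := (mem_LL g).mp hgL
    have hgx' : (g : Equiv.Perm GolayPt) x = x := hgx
    refine ⟨⟨?_, ?_⟩, ?_⟩
    · show (g : Equiv.Perm GolayPt) • dᶜ = dᶜ
      rw [Finset.compl_eq_univ_sdiff, Finset.smul_finset_sdiff, Finset.smul_finset_univ, hgd]
    · exact hgq
    · show (g : Equiv.Perm GolayPt) • ({p, x} : Finset GolayPt) = {p, x}
      rw [Finset.smul_finset_insert, Finset.smul_finset_singleton]
      show ({(g : Equiv.Perm GolayPt) p, (g : Equiv.Perm GolayPt) x} : Finset GolayPt) = _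
      rw [hgp, hgx']
  have hPc : Nat.card ↥P = 120 := by
    rw [Nat.card_congr e.toEquiv, Nat.card_perm, Nat.card_eq_fintype_card, Fintype.card_fin]
    rfl
  have hKc := card_LLx hd hp hq hxd hxp
  set K' := (LL d p q ⊓ MulAction.stabilizer M24 x).subgroupOf P with hK'
  have hK'c : Nat.card ↥K' = 60 := by
    rw [hK', Nat.card_congr (Subgroup.subgroupOfEquivOfLe hle).toEquiv, hKc]
  have hidx : K'.index = 2 := by
    have := K'.card_mul_index
    rw [hK'c, hPc] at this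
    omega
  have hidx2 : (K'.map (e : ↥P →* Equiv.Perm (Fin 5))).index = 2 := by
    rw [Subgroup.index_map_equiv, hidx]
  have halt := Equiv.Perm.eq_alternatingGroup_of_index_eq_two hidx2
  exact ⟨((Subgroup.subgroupOfEquivOfLe hle).symm.trans (e.subgroupMap K')).trans
    (MulEquiv.subgroupCongr halt)⟩

end Cfsg.Agent.Lib.Helper93.M11L
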