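import Mathlib
import Cfsg.Agent.Lib.Helper22.PTDefs

/-! Project PT (S4705, architect helper22), piece HYPL (helper93): the hypotheses pass to a
normal subgroup `L` containing `z` on which `ζ` stays irreducible. -/

set_option autoImplicit false

namespace Cfsg.Agent.Lib.Helper93.PT

open Cfsg Cfsg.Agent.Lib.Helper22.BFD Cfsg.Agent.Lib.Helper22.PT
open scoped ComplexConjugate

universe u

variable {G : Type u} [Group G] [Fintype G]

/-- PIECE HYPL -/
theorem hypL (p : ℕ) [Fact p.Prime] (z : G) (ζ : G → ℂ) (h : Hyp G p z ζ) (L : Subgroup G)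
    [L.Normal] (hzL : z ∈ L) (hirr : IsIrrCharacter L (fun l : L => ζ l)) :
    Hyp L p ⟨z, hzL⟩ (fun l : L => ζ l) := by
  have hp : p.Prime := Fact.out
  have hord : orderOf (⟨z, hzL⟩ : L) = p := by
    rw [← Subgroup.orderOf_coe]
    exact h.ord
  have hsq : ¬ p ^ 2 ∣ Nat.card L := fun hd =>
    h.sq (hd.trans (Subgroup.card_subgroup_dvd_card L))
  refine ⟨h.p5, hord, hsq, ?_, hirr, ?_, ?_⟩
  · intro hN
    apply h.nn
    have hpd : p ∣ Nat.card L := by
      rw [← hord]
      exact orderOf_dvd_natCard _
    have hfac : (Nat.card L).factorization p = 1 := by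
      have h1 : 1 ≤ (Nat.card L).factorization p :=
        (hp.dvd_iff_one_le_factorization Nat.card_pos.ne').mp hpd
      have h2 : ¬ 2 ≤ (Nat.card L).factorization p := by
        intro h2
        exact hsq ((hp.pow_dvd_iff_le_factorization Nat.card_pos.ne').mpr h2)
      omega
    have hcard : Nat.card (Subgroup.zpowers (⟨z, hzL⟩ : L)) =
        p ^ (Nat.card L).factorization p := by
      rw [Nat.card_zpowers, hord, hfac, pow_one]
    have hchar : (Subgroup.zpowers (⟨z, hzL⟩ : L)).Characteristic :=
      Sylow.characteristic_of_normal (Sylow.ofCard _ hcard) hN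
    have hnorm : ((Subgroup.zpowers (⟨z, hzL⟩ : L)).map L.subtype).Normal :=
      ConjAct.normal_of_characteristic_of_normal
    have hmap : (Subgroup.zpowers (⟨z, hzL⟩ : L)).map L.subtype = Subgroup.zpowers z := by
      rw [MonoidHom.map_zpowers]
      rfl
    rw [hmap] at hnorm
    exact hnorm
  · intro l hl
    apply Subtype.ext
    exact h.faith (l : G) hl
  · exact h.deg

end Cfsg.Agent.Lib.Helper93.PT
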