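import Mathlib
import Cfsg.Agent.Lib.Helper22.PTDefs

/-! Project PT (S4705, architect helper22), piece PERF (helper93): the normal closure of `z`
is perfect when `z` has odd prime order and is inverted inside its normal closure. -/

set_option autoImplicit false

namespace Cfsg.Agent.Lib.Helper93.PT

open Cfsg Cfsg.Agent.Lib.Helper22.BFD Cfsg.Agent.Lib.Helper22.PT
open scoped ComplexConjugate
open scoped commutatorElement

universe u

variable {G : Type u} [Group G] [Fintype G]

theorem perf_mem_of_coprime_pow {H : Type*} [Group H] (K : Subgroup H) {g : H} {a b : ℕ}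
    (hab : Nat.Coprime a b) (ha : g ^ a ∈ K) (hb : g ^ b ∈ K) : g ∈ K := by
  have h1 : (g ^ a) ^ (Nat.gcdA a b) * (g ^ b) ^ (Nat.gcdB a b) = g := by
    rw [← zpow_natCast g a, ← zpow_natCast g b, ← zpow_mul, ← zpow_mul, ← zpow_add,
      ← Nat.gcd_eq_gcd_ab, hab.gcd_eq_one]
    simp
  rw [← h1]
  exact Subgroup.mul_mem _ (Subgroup.zpow_mem _ ha _) (Subgroup.zpow_mem _ hb _)

/-- PIECE PERF -/
theorem perf (p : ℕ) [Fact p.Prime] (hp2 : p ≠ 2) (z : G) (hz : orderOf z = p)
    (hinv : ∃ n : Subgroup.normalClosure ({z} : Set G), (n : G) * z * (n : G)⁻¹ = z⁻¹) :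
    commutator (Subgroup.normalClosure ({z} : Set G)) = ⊤ := by
  have hp : p.Prime := Fact.out
  obtain ⟨n, hn⟩ := hinv
  have hzL : z ∈ Subgroup.normalClosure ({z} : Set G) :=
    Subgroup.subset_normalClosure (Set.mem_singleton z)
  obtain ⟨zL, hzLdef⟩ : ∃ zL : Subgroup.normalClosure ({z} : Set G), zL = ⟨z, hzL⟩ := ⟨_, rfl⟩
  have hzLc : (zL : G) = z := by rw [hzLdef]
  have hn' : n * zL * n⁻¹ = zL⁻¹ := by
    apply Subtype.ext
    simp only [Subgroup.coe_mul, Subgroup.coe_inv, hzLc]
    exact hn
  have hcomm : ⁅n, zL⁆ ∈ commutator (Subgroup.normalClosure ({z} : Set G)) := by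
    rw [commutator_def]
    exact Subgroup.commutator_mem_commutator (Subgroup.mem_top n) (Subgroup.mem_top zL)
  have hsq : zL ^ 2 ∈ commutator (Subgroup.normalClosure ({z} : Set G)) := by
    have h1 : ⁅n, zL⁆ = (zL ^ 2)⁻¹ := by
      rw [commutatorElement_def, hn', pow_two, mul_inv_rev]
    rw [h1] at hcomm
    exact (Subgroup.inv_mem_iff _).mp hcomm
  have hpow : zL ^ p ∈ commutator (Subgroup.normalClosure ({z} : Set G)) := by
    have h1 : zL ^ p = 1 := by
      apply Subtype.ext
      rw [Subgroup.coe_pow, hzLc, Subgroup.coe_one, ← hz]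
      exact pow_orderOf_eq_one z
    rw [h1]
    exact Subgroup.one_mem _
  have hcop : Nat.Coprime 2 p := by
    rw [Nat.coprime_primes Nat.prime_two hp]
    exact fun h => hp2 h.symm
  have hzmem : zL ∈ commutator (Subgroup.normalClosure ({z} : Set G)) :=
    perf_mem_of_coprime_pow _ hcop hsq hpow
  have hchar : (commutator (Subgroup.normalClosure ({z} : Set G))).Characteristic := by
    rw [commutator_def]
    exact Subgroup.commutator_characteristic ⊤ ⊤
  have hnorm : ((commutator (Subgroup.normalClosure ({z} : Set G))).map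
      (Subgroup.normalClosure ({z} : Set G)).subtype).Normal :=
    ConjAct.normal_of_characteristic_of_normal
  have hle : Subgroup.normalClosure ({z} : Set G) ≤
      (commutator (Subgroup.normalClosure ({z} : Set G))).map
        (Subgroup.normalClosure ({z} : Set G)).subtype := by
    apply Subgroup.normalClosure_le_normal
    intro y hy
    rw [Set.mem_singleton_iff] at hy
    rw [hy]
    exact Subgroup.mem_map.mpr ⟨zL, hzmem, hzLc⟩
  rw [eq_top_iff]
  intro l _
  obtain ⟨l', hl', hl'eq⟩ := Subgroup.mem_map.mp (hle l.2)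
  have : l' = l := Subtype.ext hl'eq
  rw [← this]
  exact hl'

end Cfsg.Agent.Lib.Helper93.PT
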