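import Mathlib
import Cfsg.Agent.Lib.Helper22.PTDefs
import Cfsg.Agent.Lib.Helper20.CliffordRel
import Cfsg.Agent.Lib.Helper68.BFPDEC
import Cfsg.Agent.Lib.Helper33.TIFour
import Cfsg.Agent.Lib.Helper4.CharDecomp
import Cfsg.Agent.Lib.Helper4.CharClosure

/-! Project PT (S4705, architect helper22), piece RED (helper93, backup copy): the restriction
of `ζ` to a normal subgroup containing `z` is irreducible (Clifford + Sylow conjugacy in `L`). -/

set_option autoImplicit false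

namespace Cfsg.Agent.Lib.Helper93.PT

open Cfsg Cfsg.Agent.Lib.Helper22.BFD Cfsg.Agent.Lib.Helper22.PT
open scoped ComplexConjugate
open scoped Pointwise

universe u

variable {G : Type u} [Group G] [Fintype G]

/-- The sum of a character over the powers of an element of order dividing `p` is `p` times a
natural number. -/
theorem red_sum_nat (p : ℕ) [Fact p.Prime] {A : Type u} [Group A] [Fintype A] (φ : A → ℂ)
    (hφ : IsCharacter A φ) (y : A) (hy : y ^ p = 1) :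
    ∃ a : ℕ, ∑ t : ZMod p, φ (y ^ t.val) = (p : ℂ) * a := by
  have hp : p.Prime := Fact.out
  have hw : IsPrimitiveRoot (Complex.exp (2 * Real.pi * Complex.I / p)) p :=
    Complex.isPrimitiveRoot_exp p hp.ne_zero
  obtain ⟨a, ha⟩ := Cfsg.Agent.Lib.Helper68.BFT.pdec p _ hw φ hφ y hy
  refine ⟨a 0, ?_⟩
  simp only [ha]
  rw [Finset.sum_comm]
  simp only [← Finset.mul_sum, Cfsg.Agent.Lib.Helper33.TI.sum_pow_val p _ hw]
  simp [mul_comm]

/-- The sum over the powers of `z` is the same for a class function of `L` and its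
`G`-conjugates (Sylow conjugacy in `L`). -/
theorem red_conj_sum (p : ℕ) [Fact p.Prime] (z : G) (hz : orderOf z = p)
    (hsq : ¬ p ^ 2 ∣ Nat.card G) (L : Subgroup G) [hL : L.Normal] (hzL : z ∈ L) (θ : L → ℂ)
    (hθ : IsClassFunction L θ) (x : G) :
    ∑ t : ZMod p, Cfsg.Agent.Lib.Helper20.conjFun L θ x ((⟨z, hzL⟩ : L) ^ t.val) =
      ∑ t : ZMod p, θ ((⟨z, hzL⟩ : L) ^ t.val) := by
  classical
  have hp : p.Prime := Fact.out
  haveI : NeZero p := ⟨hp.ne_zero⟩
  obtain ⟨zL, hzLdef⟩ : ∃ zL : L, zL = ⟨z, hzL⟩ := ⟨_, rfl⟩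
  rw [← hzLdef]
  have hzLc : (zL : G) = z := by rw [hzLdef]
  obtain ⟨yL, hyLdef⟩ : ∃ yL : L, yL = ⟨x * z * x⁻¹, hL.conj_mem z hzL x⟩ := ⟨_, rfl⟩
  have hyLc : (yL : G) = x * z * x⁻¹ := by rw [hyLdef]
  have hordz : orderOf zL = p := by
    rw [← Subgroup.orderOf_coe, hzLc]
    exact hz
  have hzLp : zL ^ p = 1 := by
    have := pow_orderOf_eq_one zL
    rwa [hordz] at this
  have hordy : orderOf yL = p := by
    rw [← Subgroup.orderOf_coe, hyLc]
    have := (MulAut.conj x).orderOf_eq z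
    rw [MulAut.conj_apply] at this
    rw [this]
    exact hz
  have hsqL : ¬ p ^ 2 ∣ Nat.card L := fun hd =>
    hsq (hd.trans (Subgroup.card_subgroup_dvd_card L))
  have hpd : p ∣ Nat.card L := by
    have := orderOf_dvd_natCard zL
    rwa [hordz] at this
  have hfac : (Nat.card L).factorization p = 1 := by
    have h1 : 1 ≤ (Nat.card L).factorization p :=
      (hp.dvd_iff_one_le_factorization Nat.card_pos.ne').mp hpd
    have h2 : ¬ 2 ≤ (Nat.card L).factorization p := fun h2 =>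
      hsqL ((hp.pow_dvd_iff_le_factorization Nat.card_pos.ne').mpr h2)
    omega
  have hcz : Nat.card (Subgroup.zpowers zL) = p ^ (Nat.card L).factorization p := by
    rw [Nat.card_zpowers, hordz, hfac, pow_one]
  have hcy : Nat.card (Subgroup.zpowers yL) = p ^ (Nat.card L).factorization p := by
    rw [Nat.card_zpowers, hordy, hfac, pow_one]
  obtain ⟨l, hl⟩ := MulAction.exists_smul_eq L (Sylow.ofCard _ hcy) (Sylow.ofCard _ hcz)
  have hmem : l * yL * l⁻¹ ∈ Subgroup.zpowers zL := by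
    have h1 : yL ∈ ((Sylow.ofCard _ hcy : Sylow p L) : Subgroup L) := Subgroup.mem_zpowers yL
    have h2 : MulAut.conj l • yL ∈
        MulAut.conj l • ((Sylow.ofCard _ hcy : Sylow p L) : Subgroup L) :=
      Subgroup.smul_mem_pointwise_smul _ _ _ h1
    rw [← Sylow.coe_subgroup_smul, hl] at h2
    exact h2
  obtain ⟨k, hk⟩ : ∃ k : ℕ, zL ^ k = l * yL * l⁻¹ := by
    have hfin : IsOfFinOrder zL := isOfFinOrder_of_finite zL
    exact (Submonoid.mem_powers_iff _ _).mp ((hfin.mem_powers_iff_mem_zpowers).mpr hmem)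
  have hkne : (k : ZMod p) ≠ 0 := by
    intro h0
    rw [ZMod.natCast_eq_zero_iff] at h0
    obtain ⟨c, hc⟩ := h0
    have h1 : zL ^ k = 1 := by rw [hc, pow_mul, hzLp, one_pow]
    rw [h1] at hk
    have h2 : yL = 1 := by
      have h3 := congrArg (fun g => l⁻¹ * g * l) hk
      simp only [mul_one, inv_mul_cancel] at h3
      rw [h3]
      group
    rw [h2, orderOf_one] at hordy
    exact hp.one_lt.ne hordy
  have hterm : ∀ t : ZMod p, Cfsg.Agent.Lib.Helper20.conjFun L θ x (zL ^ t.val) =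
      θ (zL ^ ((k : ZMod p) * t).val) := by
    intro t
    rw [Cfsg.Agent.Lib.Helper20.conjFun_apply]
    have e1 : (⟨x * ((zL ^ t.val : L) : G) * x⁻¹, hL.conj_mem _ (zL ^ t.val).2 x⟩ : L) =
        yL ^ t.val := by
      apply Subtype.ext
      show x * ((zL ^ t.val : L) : G) * x⁻¹ = ((yL ^ t.val : L) : G)
      rw [Subgroup.coe_pow, Subgroup.coe_pow, hyLc, hzLc, conj_pow]
    rw [e1]
    have e2 : θ (yL ^ t.val) = θ (l * yL ^ t.val * l⁻¹) := (hθ _ l).symm
    rw [e2, ← conj_pow, ← hk, ← pow_mul]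
    congr 1
    rw [ZMod.val_mul, ZMod.val_natCast, Nat.mod_mul_mod]
    exact pow_eq_pow_mod _ hzLp
  rw [Finset.sum_congr rfl (fun t _ => hterm t)]
  exact Equiv.sum_comp (Equiv.mulLeft₀ (k : ZMod p) hkne) (fun t => θ (zL ^ t.val))

/-- PIECE RED -/
theorem red (p : ℕ) [Fact p.Prime] (z : G) (ζ : G → ℂ) (h : Hyp G p z ζ)
    (hfix : ∑ t : ZMod p, ζ (z ^ t.val) = (p : ℂ)) (L : Subgroup G) [L.Normal] (hzL : z ∈ L) :
    IsIrrCharacter L (fun l : L => ζ l) := by
  classical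
  have hp : p.Prime := Fact.out
  haveI : NeZero p := ⟨hp.ne_zero⟩
  letI : Fintype L := Fintype.ofFinite L
  have hfinI := Cfsg.Agent.Lib.Helper4.irr_finite (G := L)
  letI : Fintype (IrrCharacter L) := Fintype.ofFinite _
  have hp0 : (p : ℂ) ≠ 0 := by exact_mod_cast hp.ne_zero
  have hχ : IsCharacter G ζ := Cfsg.Agent.Lib.Helper35.isChar_of_irr h.irr
  have hres : IsCharacter L (fun l : L => ζ l) :=
    Cfsg.Agent.Lib.Helper4.isCharacter_restrict L ζ hχ
  obtain ⟨b, hb⟩ := Cfsg.Agent.Lib.Helper4.exists_decomp_of_isCharacter _ hres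
  obtain ⟨zL, hzLdef⟩ : ∃ zL : L, zL = ⟨z, hzL⟩ := ⟨_, rfl⟩
  have hzLc : (zL : G) = z := by rw [hzLdef]
  have hzLp : zL ^ p = 1 := by
    apply Subtype.ext
    rw [Subgroup.coe_pow, hzLc, Subgroup.coe_one, ← h.ord]
    exact pow_orderOf_eq_one z
  have hA : ∀ ξ : IrrCharacter L, ∃ a : ℕ,
      ∑ t : ZMod p, (ξ : L → ℂ) (zL ^ t.val) = (p : ℂ) * a :=
    fun ξ => red_sum_nat p _ (Cfsg.Agent.Lib.Helper35.isChar_of_irr ξ.2) zL hzLp
  choose a ha using hA
  have hval : ∀ l : L, ζ l = ∑ ξ : IrrCharacter L, (b ξ : ℂ) * (ξ : L → ℂ) l := by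
    intro l
    have h1 := congrFun hb l
    simp only [Finset.sum_apply, Pi.smul_apply, smul_eq_mul] at h1
    exact h1
  have hsum : ∑ ξ : IrrCharacter L, b ξ * a ξ = 1 := by
    have h1 : ∑ t : ZMod p, ζ (z ^ t.val) =
        ∑ t : ZMod p, ∑ ξ : IrrCharacter L, (b ξ : ℂ) * (ξ : L → ℂ) (zL ^ t.val) := by
      apply Finset.sum_congr rfl
      intro t _
      rw [← hval (zL ^ t.val), Subgroup.coe_pow, hzLc]
    rw [hfix, Finset.sum_comm] at h1
    simp only [← Finset.mul_sum, ha] at h1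
    have h2 : (p : ℂ) * 1 = (p : ℂ) * ((∑ ξ : IrrCharacter L, b ξ * a ξ : ℕ) : ℂ) := by
      rw [mul_one]
      push_cast
      rw [Finset.mul_sum]
      exact h1.trans (Finset.sum_congr rfl (fun ξ _ => by ring))
    have h3 := mul_left_cancel₀ hp0 h2
    exact_mod_cast h3.symm
  have hex : ∃ ξ₀ : IrrCharacter L, b ξ₀ * a ξ₀ ≠ 0 := by
    by_contra hcon
    push Not at hcon
    rw [Finset.sum_eq_zero (fun ξ _ => hcon ξ)] at hsum
    exact zero_ne_one hsum
  obtain ⟨ξ₀, hξ₀⟩ := hex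
  have hb0 : b ξ₀ ≠ 0 := fun h0 => hξ₀ (by rw [h0, zero_mul])
  have ha0 : a ξ₀ ≠ 0 := fun h0 => hξ₀ (by rw [h0, mul_zero])
  have hpos : 1 ≤ b ξ₀ * a ξ₀ := Nat.one_le_iff_ne_zero.mpr hξ₀
  have hle : ∀ ξ : IrrCharacter L, ξ ≠ ξ₀ → b ξ * a ξ = 0 := by
    intro ξ hne
    have h1 : b ξ₀ * a ξ₀ + b ξ * a ξ ≤ ∑ ξ : IrrCharacter L, b ξ * a ξ := by
      have hsub : ({ξ₀, ξ} : Finset (IrrCharacter L)) ⊆ Finset.univ := Finset.subset_univ _
      have h2 := Finset.sum_le_sum_of_subset (f := fun ξ => b ξ * a ξ) hsub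
      rwa [Finset.sum_pair hne.symm] at h2
    rw [hsum] at h1
    omega
  have hone : b ξ₀ * a ξ₀ = 1 := by
    have h1 : b ξ₀ * a ξ₀ ≤ ∑ ξ : IrrCharacter L, b ξ * a ξ :=
      Finset.single_le_sum (f := fun ξ => b ξ * a ξ) (fun _ _ => Nat.zero_le _)
        (Finset.mem_univ ξ₀)
    rw [hsum] at h1
    omega
  have hb1 : b ξ₀ = 1 := Nat.eq_one_of_mul_eq_one_right hone
  have hcls : ∀ ξ : IrrCharacter L,
      classInner (fun l : L => ζ l) (ξ : L → ℂ) = (b ξ : ℂ) := by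
    intro ξ
    rw [hb]
    exact Cfsg.Agent.Lib.Helper4.classInner_sum_irr (fun ξ => (b ξ : ℂ)) ξ
  have hzero : ∀ ξ : IrrCharacter L, ξ ≠ ξ₀ → b ξ = 0 := by
    intro ξ hne
    by_contra hbξ
    have hc0 : classInner (fun l : L => ζ l) (ξ₀ : L → ℂ) ≠ 0 := by
      rw [hcls]
      exact_mod_cast hb0
    have hc1 : classInner (fun l : L => ζ l) (ξ : L → ℂ) ≠ 0 := by
      rw [hcls]
      exact_mod_cast hbξ
    obtain ⟨x, hx⟩ := Cfsg.Agent.Lib.Helper20.clifford_conj L ξ₀.2 h.irr hc0 ξ.2 hc1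
    have hsumeq : ∑ t : ZMod p, (ξ : L → ℂ) (zL ^ t.val) =
        ∑ t : ZMod p, (ξ₀ : L → ℂ) (zL ^ t.val) := by
      rw [hx, hzLdef]
      exact red_conj_sum p z h.ord h.sq L hzL _
        (Cfsg.Agent.Lib.Helper35.isClassFunction_of_isCharacter
          (Cfsg.Agent.Lib.Helper35.isChar_of_irr ξ₀.2)) x
    rw [ha, ha] at hsumeq
    have haeq : a ξ = a ξ₀ := by exact_mod_cast mul_left_cancel₀ hp0 hsumeq
    have h4 := hle ξ hne
    rw [haeq] at h4
    rcases Nat.mul_eq_zero.mp h4 with h1 | h1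
    · exact hbξ h1
    · exact ha0 h1
  have hfinal : (fun l : L => ζ l) = (ξ₀ : L → ℂ) := by
    rw [hb, Finset.sum_eq_single ξ₀]
    · rw [hb1]
      simp
    · intro ξ _ hne
      rw [hzero ξ hne]
      simp
    · intro hh
      exact absurd (Finset.mem_univ _) hh
  rw [hfinal]
  exact ξ₀.2

end Cfsg.Agent.Lib.Helper93.PT
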